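import Cfsg.Agent.GlaubermanZJ.PStable
import Cfsg.Agent.GlaubermanZJ.SylowNormal
import Cfsg.Agent.Eq.Def_PLocal

/-!
Groups without `SL(2)` sections are `p`-stable in the action sense.
-/

set_option autoImplicit false

open Cfsg
open scoped commutatorElement

namespace CfsgLib.StableClosure

universe u

variable {G : Type u} [Group G] [Finite G] {p : ℕ} [Fact p.Prime]

theorem isActionPStable_of_noSL2Section (h : GlaubermanZJ.NoSL2Section p G) : IsActionPStable p G := by
  refine ⟨fun V _ hV => GlaubermanZJ.isPStableOn_of_noSL2Section h V (LocalP.isPGroup_of_isElementaryAbelian hV),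
    ?_, fun S V _ hV => ?_⟩
  · set Q := pCore p G with hQ
    haveI hQn : Q.Normal := Constrained.instNormalPCore p
    set F := (frattini ↥Q).map Q.subtype with hF
    haveI : F.Normal := ConjAct.normal_of_characteristic_of_normal
    intro a ha
    set f := QuotientGroup.mk' F with hf
    haveI : (Q.map f).Normal := hQn.map f (QuotientGroup.mk'_surjective F)
    have h1 := GlaubermanZJ.isPStableOn_of_noSL2Section (h.of_surjective f (QuotientGroup.mk'_surjective F))
      (Q.map f) (Constrained.isPGroup_pCore.map f) (f a) (by
        rw [← MonoidHom.map_zpowers, ← Subgroup.map_commutator, ← Subgroup.map_commutator,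
          Subgroup.map_eq_bot_iff, hf, QuotientGroup.ker_mk']
        exact ha)
    set C := Subgroup.centralizer ((Q.map f : Subgroup (G ⧸ F)) : Set (G ⧸ F)) with hC
    refine ⟨((pCore p ((G ⧸ F) ⧸ C)).comap (QuotientGroup.mk' C)).comap f, inferInstance, ?_, ?_, h1⟩
    · refine Subgroup.comap_mono fun x hx => ?_
      show QuotientGroup.mk' C x ∈ pCore p _
      have h2 : QuotientGroup.mk' C x = 1 := (QuotientGroup.eq_one_iff x).2 hx
      rw [h2]; exact one_mem _
    · show ∃ k : ℕ, (C.comap f).relIndex _ = p ^ k
      rw [Subgroup.relIndex_comap, Subgroup.map_comap_eq_self_of_surjective (QuotientGroup.mk'_surjective F)]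
      exact GlaubermanZJ.relIndex_comap_pCore C
  · refine GlaubermanZJ.isPStableOn_of_noSL2Section
      (h.of_injective (Subgroup.normalizer (thompsonSubgroupOf p (S : Subgroup G) : Set G)).subtype
        (Subgroup.subtype_injective _)) V ?_
    exact (S.2.to_le (hV.trans (Subgroup.map_subtype_le _))).of_equiv
      (V.equivMapOfInjective _ (Subgroup.subtype_injective _)).symm

end CfsgLib.StableClosure
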